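import Mathlib

/-!
Elementary estimates for the order formulas of the groups of Lie type.
-/

set_option autoImplicit false

namespace CfsgLib.LieOrderBound

theorem sub_one_lt {q : ℕ} (hq : 2 ≤ q) (i : ℕ) : q ^ i - 1 < q ^ i :=
  Nat.sub_lt (Nat.pow_pos (by omega)) one_pos

theorem add_one_lt {q : ℕ} (hq : 2 ≤ q) {i : ℕ} (hi : 1 ≤ i) : q ^ i + 1 < q ^ (i + 1) := by
  have h1 : q ≤ q ^ i := Nat.le_self_pow (by omega) q
  have h2 : q ^ i * 2 ≤ q ^ i * q := Nat.mul_le_mul_left _ hq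
  rw [pow_succ]
  omega

theorem mul_lt {q a b i j : ℕ} (ha : a < q ^ i) (hb : b < q ^ j) : a * b < q ^ (i + j) := by
  rw [pow_add]
  exact Nat.mul_lt_mul'' ha hb

/-- `∏ (q^(2i+2) - 1) < q^(m(m+1))`. -/
theorem prod_even_le {q : ℕ} (hq : 2 ≤ q) : ∀ m : ℕ,
    ∏ i ∈ Finset.range m, (q ^ (2 * (i + 1)) - 1) ≤ q ^ (m * (m + 1)) := by
  intro m
  induction m with
  | zero => simp
  | succ m ih =>
    rw [Finset.prod_range_succ, show (m + 1) * (m + 1 + 1) = m * (m + 1) + 2 * (m + 1) by ring, pow_add]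
    exact Nat.mul_le_mul ih (Nat.sub_le _ _)

theorem prod_even_lt {q : ℕ} (hq : 2 ≤ q) {m : ℕ} (hm : 1 ≤ m) :
    ∏ i ∈ Finset.range m, (q ^ (2 * (i + 1)) - 1) < q ^ (m * (m + 1)) := by
  obtain ⟨k, rfl⟩ : ∃ k, m = k + 1 := ⟨m - 1, by omega⟩
  rw [Finset.prod_range_succ, show (k + 1) * (k + 1 + 1) = k * (k + 1) + 2 * (k + 1) by ring, pow_add]
  exact Nat.mul_lt_mul_of_le_of_lt (prod_even_le hq k) (sub_one_lt hq _) (Nat.pow_pos (by omega))

/-- The product in the order of `GL n`. -/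
theorem prod_linear {q : ℕ} (hq : 2 ≤ q) : ∀ n : ℕ, 2 ≤ n →
    ∏ i ∈ Finset.range n, (q ^ (i + 1) - 1) < (q - 1) * q ^ (n * (n + 1) / 2 - 1) := by
  intro n hn
  induction n, hn using Nat.le_induction with
  | base =>
    simp only [Finset.prod_range_succ, Finset.prod_range_zero, one_mul, zero_add, pow_one]
    exact Nat.mul_lt_mul_of_pos_left (sub_one_lt hq 2) (by omega)
  | succ n hn ih =>
    have h1 : 1 ≤ n * (n + 1) / 2 := by
      have : 2 * 3 ≤ n * (n + 1) := Nat.mul_le_mul hn (by omega)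
      omega
    have h2 : (n + 1) * (n + 1 + 1) / 2 - 1 = n * (n + 1) / 2 - 1 + (n + 1) := by
      rw [show (n + 1) * (n + 1 + 1) = n * (n + 1) + 2 * (n + 1) by ring, Nat.add_mul_div_left _ _ two_pos]
      omega
    rw [Finset.prod_range_succ, h2, pow_add q (n * (n + 1) / 2 - 1) (n + 1), ← mul_assoc (q - 1)]
    exact Nat.mul_lt_mul'' ih (sub_one_lt hq _)

/-- The product in the order of `GU n`. -/
theorem prod_unitary {q : ℕ} (hq : 2 ≤ q) : ∀ n : ℕ, 3 ≤ n →
    ∏ i ∈ Finset.range n, (if Even i then q ^ (i + 1) + 1 else q ^ (i + 1) - 1) <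
      (q + 1) * q ^ (n * (n + 1) / 2 - 1) := by
  set P : ℕ → ℕ := fun n => ∏ i ∈ Finset.range n, (if Even i then q ^ (i + 1) + 1 else q ^ (i + 1) - 1) with hP
  set T : ℕ → ℕ := fun n => n * (n + 1) / 2 with hT
  have hTs : ∀ n, T (n + 1) = T n + (n + 1) := fun n => by
    simp only [hT, show (n + 1) * (n + 1 + 1) = n * (n + 1) + 2 * (n + 1) by ring, Nat.add_mul_div_left _ _ two_pos]
  have hev : ∀ k : ℕ, P (2 * k + 2) = P (2 * k + 1) * (q ^ (2 * k + 2) - 1) := fun k => by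
    simp only [hP]
    rw [Finset.prod_range_succ, if_neg (by simp [parity_simps])]
  have hpair : ∀ k : ℕ, 1 ≤ k → (q ^ (2 * k) - 1) * (q ^ (2 * k + 1) + 1) < q ^ (4 * k + 1) := by
    intro k hk
    have h1 : 1 ≤ q ^ (2 * k) := Nat.one_le_pow _ _ (by omega)
    have h2 : q ^ (2 * k) < q ^ (2 * k + 1) := Nat.pow_lt_pow_right hq (by omega)
    have h3 : q ^ (4 * k + 1) = q ^ (2 * k) * q ^ (2 * k + 1) := by rw [← pow_add]; congr 1; omega
    rw [h3]
    zify [h1] at *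
    nlinarith
  have hodd : ∀ k : ℕ, P (2 * k + 1) ≤ (q + 1) * q ^ (T (2 * k + 1) - 1) ∧
      (1 ≤ k → P (2 * k + 1) < (q + 1) * q ^ (T (2 * k + 1) - 1)) := by
    intro k
    induction k with
    | zero => simp [hP, hT]
    | succ k ih =>
      have e : P (2 * (k + 1) + 1) = P (2 * k + 1) * ((q ^ (2 * (k + 1)) - 1) * (q ^ (2 * (k + 1) + 1) + 1)) := by
        rw [← mul_assoc, show 2 * (k + 1) = 2 * k + 2 by ring, ← hev k]
        simp only [hP]
        rw [Finset.prod_range_succ, if_pos (by simp [parity_simps])]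
      have hT1 : 1 ≤ T (2 * k + 1) := by
        simp only [hT]
        have : 1 * 2 ≤ (2 * k + 1) * (2 * k + 1 + 1) := Nat.mul_le_mul (by omega) (by omega)
        omega
      have e2 : T (2 * (k + 1) + 1) - 1 = T (2 * k + 1) - 1 + (4 * (k + 1) + 1) := by
        have := hTs (2 * k + 1 + 1)
        have := hTs (2 * k + 1)
        rw [show 2 * (k + 1) + 1 = 2 * k + 1 + 1 + 1 by ring]
        omega
      have hlt : P (2 * (k + 1) + 1) < (q + 1) * q ^ (T (2 * (k + 1) + 1) - 1) := by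
        rw [e, e2, pow_add q (T (2 * k + 1) - 1) (4 * (k + 1) + 1), ← mul_assoc (q + 1)]
        exact Nat.mul_lt_mul_of_le_of_lt ih.1 (hpair (k + 1) (by omega))
          (Nat.mul_pos (by omega) (Nat.pow_pos (by omega)))
      exact ⟨hlt.le, fun _ => hlt⟩
  intro n hn
  rcases Nat.even_or_odd' n with ⟨k, rfl | rfl⟩
  · obtain ⟨j, rfl⟩ : ∃ j, k = j + 1 := ⟨k - 1, by omega⟩
    show P (2 * (j + 1)) < (q + 1) * q ^ (T (2 * (j + 1)) - 1)
    have hT1 : 1 ≤ T (2 * j + 1) := by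
      simp only [hT]
      have : 1 * 2 ≤ (2 * j + 1) * (2 * j + 1 + 1) := Nat.mul_le_mul (by omega) (by omega)
      omega
    rw [show 2 * (j + 1) = 2 * j + 2 by ring, hev j,
      show T (2 * j + 2) - 1 = T (2 * j + 1) - 1 + (2 * j + 2) by
        have h' : T (2 * j + 2) = T (2 * j + 1) + (2 * j + 2) := hTs (2 * j + 1)
        omega,
      pow_add q (T (2 * j + 1) - 1) (2 * j + 2), ← mul_assoc (q + 1)]
    exact Nat.mul_lt_mul_of_le_of_lt (hodd j).1 (sub_one_lt hq _)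
      (Nat.mul_pos (by omega) (Nat.pow_pos (by omega)))
  · exact (hodd k).2 (by omega)

/-- From an order formula `g * |G| = q^N * R` with `R < h * q^D`, `h ≤ g`. -/
theorem bounds {c p f q N D R g h : ℕ} (hp : p.Prime) (hf : 1 ≤ f) (hq : q = p ^ f) (hc : 0 < c) (h0 : 0 < h)
    (hh : h ≤ g) (hg : g.Coprime q) (hcard : g * c = q ^ N * R) (hR : R < h * q ^ D) (hD : D ≤ 2 * N) :
    c < p ^ (3 * c.factorization p) ∧ (3 * D ≤ 5 * N → c ^ 3 < p ^ (8 * c.factorization p)) := by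
  have hdvd : q ^ N ∣ c := (Nat.Coprime.pow_left N hg.symm).dvd_of_dvd_mul_left ⟨R, hcard⟩
  have hk : f * N ≤ c.factorization p := by
    rw [← hp.pow_dvd_iff_le_factorization hc.ne', pow_mul, ← hq]
    exact hdvd
  have hlt : c < q ^ (N + D) := by
    refine Nat.lt_of_mul_lt_mul_left (a := h) ?_
    calc h * c ≤ g * c := Nat.mul_le_mul_right c hh
      _ = q ^ N * R := hcard
      _ < q ^ N * (h * q ^ D) := Nat.mul_lt_mul_of_pos_left hR (Nat.pow_pos (hq ▸ Nat.pow_pos hp.pos))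
      _ = h * q ^ (N + D) := by rw [pow_add]; ring
  constructor
  · refine hlt.trans_le ?_
    rw [hq, ← pow_mul]
    refine Nat.pow_le_pow_right hp.pos ?_
    calc f * (N + D) ≤ f * (3 * N) := Nat.mul_le_mul_left f (by omega)
      _ = 3 * (f * N) := by ring
      _ ≤ 3 * c.factorization p := by omega
  · intro hD'
    refine (Nat.pow_lt_pow_left hlt (by norm_num)).trans_le ?_
    rw [hq, ← pow_mul, ← pow_mul]
    refine Nat.pow_le_pow_right hp.pos ?_
    calc f * ((N + D) * 3) = f * (3 * N + 3 * D) := by ring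
      _ ≤ f * (8 * N) := Nat.mul_le_mul_left f (by omega)
      _ = 8 * (f * N) := by ring
      _ ≤ 8 * c.factorization p := by omega

end CfsgLib.LieOrderBound
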